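/-
Subnormal Clifford theory for a minimal normal abelian `p`-subgroup `V`: if `I ≤ J` are normal with
`J / I` a `p`-group, then `V` is generated by minimal `W`-invariant subgroups for every `I ≤ W ≤ J`.
Consequently, an element `u ∈ J` whose square commutator lands in an `I`-invariant, `u`-invariant
subgroup on which `u` acts quadratically acts quadratically on `V`.
-/
import Cfsg.Agent.Lib.KInf.Main

set_option autoImplicit false

open scoped commutatorElement

namespace Cfsg.Agent.Lib.KInf.QuadChief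

open Cfsg Subgroup Cfsg.Agent.Lib.KInf.Comm Cfsg.Agent.Lib.KInf.Critical
open Cfsg.Agent.Lib.KInf.Clifford Cfsg.Agent.Lib.KInf.Stable

section Step

variable {X : Type*} [Group X] [Finite X]

lemma exists_simple_le {V W M : Subgroup X} (hMV : M ≤ V) (hM : Inv W M) (hne : M ≠ ⊥) :
    ∃ M₀, SimpleInv V W M₀ ∧ M₀ ≤ M := by
  classical
  let 𝓜 : Set (Subgroup X) := {N | N ≤ M ∧ Inv W N ∧ N ≠ ⊥}
  have hne' : 𝓜.Nonempty := ⟨M, le_rfl, hM, hne⟩
  obtain ⟨N, hN⟩ := (Set.toFinite 𝓜).exists_minimal hne'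
  obtain ⟨⟨hN1, hN2, hN3⟩, hNmin⟩ := hN
  refine ⟨N, ⟨hN1.trans hMV, hN2, hN3, ?_⟩, hN1⟩
  intro M' hM' hinv
  by_cases hbot : M' = ⊥
  · exact Or.inl hbot
  · exact Or.inr (le_antisymm hM' (hNmin ⟨hM'.trans hN1, hinv, hbot⟩ hM'))

/-- Conjugating a simple piece by an element normalizing `W` and `V`. -/
lemma simpleInv_conj {V W M : Subgroup X} (hM : SimpleInv V W M) {x : X}
    (hxW : ∀ w ∈ W, x⁻¹ * w * x ∈ W) (hxW' : ∀ w ∈ W, x * w * x⁻¹ ∈ W)
    (hxV : ∀ v ∈ V, x * v * x⁻¹ ∈ V) :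
    SimpleInv V W (M.map (MulAut.conj x).toMonoidHom) := by
  have hinv : ∀ {N : Subgroup X} (y : X), (∀ w ∈ W, y⁻¹ * w * y ∈ W) → Inv W N →
      Inv W (N.map (MulAut.conj y).toMonoidHom) := by
    rintro N y hy hN h hh _ ⟨m, hm, rfl⟩
    refine ⟨(y⁻¹ * h * y) * m * (y⁻¹ * h * y)⁻¹, hN _ (hy h hh) m hm, ?_⟩
    simp only [MulEquiv.coe_toMonoidHom, MulAut.conj_apply]
    group
  refine ⟨?_, hinv x hxW hM.inv, ?_, ?_⟩
  · rintro _ ⟨m, hm, rfl⟩
    exact hxV m (hM.le hm)
  · intro h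
    rw [Subgroup.map_eq_bot_iff_of_injective _ (MulEquiv.injective _)] at h
    exact hM.ne h
  · intro M' hM' hinv'
    have h1 : M'.map (MulAut.conj x⁻¹).toMonoidHom ≤ M := by
      rintro _ ⟨y, hy, rfl⟩
      obtain ⟨m, hm, rfl⟩ := hM' hy
      have e : (MulAut.conj x⁻¹).toMonoidHom ((MulAut.conj x).toMonoidHom m) = m := by
        simp only [MulEquiv.coe_toMonoidHom, MulAut.conj_apply]; group
      rw [e]; exact hm
    have hmm : (M'.map (MulAut.conj x⁻¹).toMonoidHom).map (MulAut.conj x).toMonoidHom = M' := by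
      ext y
      constructor
      · rintro ⟨_, ⟨z, hz, rfl⟩, rfl⟩
        have e : (MulAut.conj x).toMonoidHom ((MulAut.conj x⁻¹).toMonoidHom z) = z := by
          simp only [MulEquiv.coe_toMonoidHom, MulAut.conj_apply]; group
        rw [e]; exact hz
      · intro hy
        exact ⟨x⁻¹ * y * x, ⟨y, hy, by simp⟩, by simp; group⟩
    have hinv2 : Inv W (M'.map (MulAut.conj x⁻¹).toMonoidHom) :=
      hinv x⁻¹ (by simpa using hxW') hinv'
    rcases hM.min _ h1 hinv2 with h2 | h2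
    · left
      rw [← hmm, h2, Subgroup.map_bot]
    · right
      rw [← hmm, h2]

/-- `V` is generated by its minimal `W`-invariant subgroups. -/
def GenBy (V W : Subgroup X) : Prop := sSup {M | SimpleInv V W M} = V

/-- One Clifford step: generation passes from `W'` to a normal subgroup `W` of `W'`. -/
lemma GenBy.step {V W W' : Subgroup X} (hWW' : W ≤ W')
    (hWn : ∀ x ∈ W', ∀ w ∈ W, x * w * x⁻¹ ∈ W) (hV : Inv W' V) (hgen : GenBy V W') :
    GenBy V W := by
  unfold GenBy at hgen ⊢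
  refine le_antisymm (sSup_le fun M hM => hM.le) ?_
  conv_lhs => rw [← hgen]
  refine sSup_le fun M hM => ?_
  set N₀ : Subgroup X := sSup {M₀ | SimpleInv V W M₀ ∧ M₀ ≤ M} with hN₀
  have hN₀M : N₀ ≤ M := sSup_le fun M₀ h => h.2
  have hN₀inv : Inv W' N₀ := by
    intro x hx n hn
    have h1 : N₀ ≤ N₀.comap (MulAut.conj x).toMonoidHom := by
      refine sSup_le fun M₀ hM₀ => ?_
      intro m hm
      have h2 : SimpleInv V W (M₀.map (MulAut.conj x).toMonoidHom) :=
        simpleInv_conj hM₀.1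
          (fun w hw => by simpa using hWn x⁻¹ (W'.inv_mem hx) w hw) (hWn x hx)
          (hV x hx)
      have h3 : M₀.map (MulAut.conj x).toMonoidHom ≤ M := by
        rintro _ ⟨y, hy, rfl⟩
        exact hM.inv x hx y (hM₀.2 hy)
      exact (le_sSup ⟨h2, h3⟩ : _ ≤ N₀) ⟨m, hm, rfl⟩
    exact h1 hn
  have hMW : Inv W M := fun h hh m hm => hM.inv h (hWW' hh) m hm
  obtain ⟨M₀, hM₀, hM₀M⟩ := exists_simple_le (V := V) hM.le hMW hM.ne
  have hne : N₀ ≠ ⊥ := by
    intro h
    have : M₀ ≤ N₀ := le_sSup ⟨hM₀, hM₀M⟩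
    rw [h, le_bot_iff] at this
    exact hM₀.ne this
  rcases hM.min N₀ hN₀M hN₀inv with h | h
  · exact absurd h hne
  · rw [← h]
    exact sSup_le_sSup fun M₁ hM₁ => hM₁.1

/-- The normalizer condition for `W` in `J` when `J / I` is a `p`-group. -/
lemma exists_normalizing {p : ℕ} [Fact p.Prime] {I J W : Subgroup X} (hIn : I.Normal)
    (hJI : ∀ y ∈ J, ∃ k : ℕ, y ^ (p ^ k) ∈ I) (hIW : I ≤ W) (hWJ : W < J) :
    ∃ n ∈ J, n ∉ W ∧ ∀ w ∈ W, n * w * n⁻¹ ∈ W := by
  have hI' : (I.subgroupOf J).Normal := hIn.subgroupOf J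
  let φ : ↥J →* ↥J ⧸ I.subgroupOf J := QuotientGroup.mk' _
  have hφs : Function.Surjective φ := QuotientGroup.mk'_surjective _
  have hφ : ∀ y : ↥J, φ y = 1 ↔ (y : X) ∈ I := fun y => by
    rw [show φ y = (y : ↥J ⧸ I.subgroupOf J) from rfl, QuotientGroup.eq_one_iff]
    exact Subgroup.mem_subgroupOf
  have hpg : IsPGroup p (↥J ⧸ I.subgroupOf J) := by
    intro q
    obtain ⟨y, rfl⟩ := hφs q
    obtain ⟨k, hk⟩ := hJI y y.2
    refine ⟨k, ?_⟩
    rw [← map_pow, hφ]
    simpa using hk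
  have hnil : Group.IsNilpotent (↥J ⧸ I.subgroupOf J) := hpg.isNilpotent
  have hcond := Group.normalizerCondition_of_isNilpotent (G := ↥J ⧸ I.subgroupOf J)
  let Ŵ : Subgroup (↥J ⧸ I.subgroupOf J) := (W.subgroupOf J).map φ
  have hmemŴ : ∀ y : ↥J, φ y ∈ Ŵ → (y : X) ∈ W := by
    rintro y ⟨w, hw, hwy⟩
    have h1 : φ (w⁻¹ * y) = 1 := by rw [map_mul, map_inv, hwy]; simp
    have h2 : ((w⁻¹ * y : ↥J) : X) ∈ I := (hφ _).1 h1
    have h3 : (w : X) ∈ W := Subgroup.mem_subgroupOf.1 hw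
    have h4 := W.mul_mem h3 (hIW h2)
    simpa using h4
  have hŴ : Ŵ < ⊤ := by
    rw [lt_top_iff_ne_top]
    intro h
    obtain ⟨j, hj, hjW⟩ := SetLike.exists_of_lt hWJ
    have : φ ⟨j, hj⟩ ∈ Ŵ := by rw [h]; exact Subgroup.mem_top _
    exact hjW (hmemŴ _ this)
  obtain ⟨q, hq, hqŴ⟩ := SetLike.exists_of_lt (hcond Ŵ hŴ)
  obtain ⟨n, rfl⟩ := hφs q
  refine ⟨n, n.2, fun h => hqŴ ⟨n, Subgroup.mem_subgroupOf.2 h, rfl⟩, ?_⟩
  intro w hw
  have hw' : (⟨w, hWJ.le hw⟩ : ↥J) ∈ W.subgroupOf J := Subgroup.mem_subgroupOf.2 hw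
  have h1 : φ ⟨w, hWJ.le hw⟩ ∈ Ŵ := ⟨_, hw', rfl⟩
  have h2 := (Subgroup.mem_normalizer_iff.1 hq _).1 h1
  have h3 : φ (n * ⟨w, hWJ.le hw⟩ * n⁻¹) ∈ Ŵ := by
    rw [map_mul, map_mul, map_inv]; exact h2
  exact hmemŴ _ h3

variable {p : ℕ} [Fact p.Prime] {V I J : Subgroup X}

/-- Generation by minimal `W`-invariant subgroups for every `I ≤ W ≤ J`. -/
theorem genBy_of_pquot (hV : MinAb p V) (hIn : I.Normal) (hJn : J.Normal)
    (hJI : ∀ y ∈ J, ∃ k : ℕ, y ^ (p ^ k) ∈ I) :
    ∀ W : Subgroup X, I ≤ W → W ≤ J → GenBy V W := by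
  intro W
  induction W using WellFoundedGT.induction with
  | ind W ih =>
    intro hIW hWJ
    by_cases hWeq : W = J
    · subst hWeq
      exact sSup_simpleInv hJn hV
    · have hlt : W < J := lt_of_le_of_ne hWJ hWeq
      obtain ⟨n, hnJ, hnW, hn⟩ := exists_normalizing hIn hJI hIW hlt
      -- the normalizer of `W` in `J`
      have hfin : ∀ w ∈ W, n⁻¹ * w * n ∈ W := by
        -- `n` permutes the finite set `W`
        have hinj : Function.Injective (fun w : W => (⟨n * w.1 * n⁻¹, hn w.1 w.2⟩ : W)) := by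
          intro a b hab
          have := congrArg Subtype.val hab
          apply Subtype.ext
          simpa using this
        have hsurj := (Finite.injective_iff_surjective.1 hinj)
        intro w hw
        obtain ⟨a, ha⟩ := hsurj ⟨w, hw⟩
        have h1 : n * a.1 * n⁻¹ = w := congrArg Subtype.val ha
        have h2 : n⁻¹ * w * n = a.1 := by rw [← h1]; group
        rw [h2]; exact a.2
      let W' : Subgroup X := J ⊓ normalizer (W : Set X)
      have hnW' : n ∈ W' := ⟨hnJ, Subgroup.mem_normalizer_iff.2 fun w => by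
        constructor
        · exact hn w
        · intro h
          have := hfin _ h
          have e : n⁻¹ * (n * w * n⁻¹) * n = w := by group
          rwa [e] at this⟩
      have hWW' : W ≤ W' := fun w hw => ⟨hWJ hw, Subgroup.le_normalizer hw⟩
      have hWlt : W < W' := lt_of_le_of_ne hWW' (fun h => hnW (h ▸ hnW'))
      have hgen := ih W' hWlt (hIW.trans hWW') inf_le_left
      refine GenBy.step hWW' ?_ (fun h _ m hm => hV.normal.conj_mem m hm h) hgen
      intro x hx w hw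
      exact (Subgroup.mem_normalizer_iff.1 hx.2 w).1 hw

/-- The main lemma: quadratic action on `V` from quadratic action on an `I⟨u⟩`-invariant subgroup
containing `[V, u, u]`. -/
theorem quad_of_radical (hV : MinAb p V) (hIn : I.Normal) (hJn : J.Normal) (hIJ : I ≤ J)
    (hJI : ∀ y ∈ J, ∃ k : ℕ, y ^ (p ^ k) ∈ I) {u : X} (hu : u ∈ J) {P : Subgroup X}
    (hPV : P ≤ V) (hPI : Inv I P)
    (huP : ∀ m ∈ P, u * m * u⁻¹ ∈ P) (huP' : ∀ m ∈ P, u⁻¹ * m * u ∈ P)
    (h1 : ⁅⁅V, zpowers u⁆, zpowers u⁆ ≤ P) (h2 : ⁅⁅P, zpowers u⁆, zpowers u⁆ = ⊥) :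
    ⁅⁅V, zpowers u⁆, zpowers u⁆ = ⊥ := by
  set Z := zpowers u with hZ
  set W := I ⊔ Z with hW
  have hWJ : W ≤ J := sup_le hIJ (Subgroup.zpowers_le.2 hu)
  have hgen : GenBy V W := genBy_of_pquot hV hIn hJn hJI W le_sup_left hWJ
  -- `P` is `W`-invariant
  have hIN : I ≤ normalizer (P : Set X) := fun h hh =>
    mem_normalizer_of_conj (hPI h hh) (by simpa using hPI h⁻¹ (I.inv_mem hh))
  have hZN : Z ≤ normalizer (P : Set X) :=
    Subgroup.zpowers_le.2 (mem_normalizer_of_conj huP huP')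
  have hPW : Inv W P := by
    intro h hh m hm
    exact (Subgroup.mem_normalizer_iff.1 ((sup_le hIN hZN) hh) m).1 hm
  have hT : ∀ T, SimpleInv V W T → ⁅⁅T, Z⁆, Z⁆ = ⊥ := by
    intro T hT
    have hZT : ⁅T, Z⁆ ≤ T := comm_le_of_inv fun z hz t ht =>
      hT.inv z (Subgroup.mem_sup_right hz) t ht
    rcases hT.min _ inf_le_left (hT.inv.inf hPW) with h | h
    · rw [eq_bot_iff, ← h]
      refine le_inf ?_ ?_
      · exact (Subgroup.commutator_mono hZT le_rfl).trans hZT
      · exact (Subgroup.commutator_mono (Subgroup.commutator_mono hT.le le_rfl) le_rfl).trans h1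
    · have hTP : T ≤ P := by rw [← h]; exact inf_le_right
      rw [eq_bot_iff, ← h2]
      exact Subgroup.commutator_mono (Subgroup.commutator_mono hTP le_rfl) le_rfl
  -- collecting
  have hcommV : ∀ m ∈ V, ∀ b ∈ V, ∀ k : X, ⁅m * b, k⁆ = ⁅b, k⁆ * ⁅m, k⁆ := by
    intro m hm b hb k
    rw [comm_mul_left]
    have hbk : ⁅b, k⁆ ∈ V := comm_mem_of_inv (K := ⊤)
      (fun k _ m hm => hV.normal.conj_mem m hm k) hb (Subgroup.mem_top k)
    rw [← hV.ab _ hbk _ hm]
    group
  let X₁ : Subgroup X :=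
    { carrier := {v | v ∈ V ∧ ∀ z ∈ Z, ⁅v, z⁆ ∈ centralizer (Z : Set X)}
      one_mem' := ⟨V.one_mem, fun z _ => by simp⟩
      mul_mem' := by
        rintro a b ⟨ha, ha'⟩ ⟨hb, hb'⟩
        refine ⟨V.mul_mem ha hb, fun z hz => ?_⟩
        rw [hcommV a ha b hb]
        exact Subgroup.mul_mem _ (hb' z hz) (ha' z hz)
      inv_mem' := by
        rintro a ⟨ha, ha'⟩
        refine ⟨V.inv_mem ha, fun z hz => ?_⟩
        have h3 := hcommV a ha a⁻¹ (V.inv_mem ha) z
        have h4 : ⁅a * a⁻¹, z⁆ = 1 := by simp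
        rw [h4] at h3
        have h5 : ⁅a⁻¹, z⁆ = ⁅a, z⁆⁻¹ := eq_inv_of_mul_eq_one_left h3.symm
        rw [h5]
        exact Subgroup.inv_mem _ (ha' z hz) }
  have hVX : V ≤ X₁ := by
    have h3 : sSup {M | SimpleInv V W M} = V := hgen
    rw [← h3]
    refine sSup_le fun T hTs => ?_
    intro t ht
    refine ⟨hTs.le ht, fun z hz => ?_⟩
    rw [Subgroup.mem_centralizer_iff]
    intro y hy
    have h4 : ⁅⁅t, z⁆, y⁆ ∈ ⁅⁅T, Z⁆, Z⁆ :=
      Subgroup.commutator_mem_commutator (Subgroup.commutator_mem_commutator ht hz) hy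
    rw [hT T hTs, Subgroup.mem_bot, commutatorElement_eq_one_iff_mul_comm] at h4
    exact h4.symm
  rw [Subgroup.commutator_eq_bot_iff_le_centralizer, Subgroup.commutator_le]
  intro v hv z hz
  exact (hVX hv).2 z hz

end Step

/-! ### Application: the good element of the K-infinity theorem -/

section Good

variable {G : Type*} [Group G] [Finite G] {p : ℕ} [Fact p.Prime]

lemma chief_quad {D E F : Subgroup G} (hDn : D.Normal) (hEF : IsChiefFactor E F) (hED : E ≤ D)
    {a : G} (hq1 : ⁅⁅Zc D, zpowers a⁆, zpowers a⁆ = ⊥)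
    (hq2 : ⁅⁅D, zpowers a⁆, zpowers a⁆ ≤ Zc D) : ⁅⁅E, zpowers a⁆, zpowers a⁆ ≤ F := by
  have hFn := hEF.2.2.1
  have hEn := hEF.2.1
  have := hFn; have := hEn
  have hWn : (Zc D).Normal := Zc_normal hDn
  have := hWn
  have hN2 : ((E ⊓ Zc D) ⊔ F).Normal := by
    have : (E ⊓ Zc D).Normal := Subgroup.normal_inf_normal _ _
    exact Subgroup.sup_normal _ _
  have hEc : ⁅E, zpowers a⁆ ≤ E := comm_normal_le hEn _
  rcases hEF.2.2.2 _ hN2 le_sup_right (sup_le inf_le_left hEF.1.le) with h | h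
  · have hEWF : E ⊓ Zc D ≤ F := by rw [← h]; exact le_sup_left
    intro x hx
    refine hEWF ⟨?_, ?_⟩
    · exact hEc (Subgroup.commutator_mono hEc le_rfl hx)
    · exact hq2 (Subgroup.commutator_mono (Subgroup.commutator_mono hED le_rfl) le_rfl hx)
  · have h4 : iterCommutator (E ⊓ Zc D) (zpowers a) 2 ≤ F := by
      have h5 : iterCommutator (E ⊓ Zc D) (zpowers a) 2 ≤ iterCommutator (Zc D) (zpowers a) 2 :=
        iter_mono _ inf_le_right 2
      have h6 : iterCommutator (Zc D) (zpowers a) 2 = ⊥ := hq1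
      rw [h6] at h5
      exact h5.trans bot_le
    exact iter_le_of_cover hFn h.ge h4

/-- `J / I` is a `p`-group for `J` the stabilizer of the chief factors inside the `p`-group `W`. -/
lemma chiefStab_pquot {T W : Subgroup G} (hTp : IsPGroup p T) (hWT : W ≤ T) (hWn : W.Normal)
    {y : G} (hy : y ∈ chiefStab W) :
    ∃ k : ℕ, y ^ (p ^ k) ∈ chiefStab W ⊓ centralizer (W : Set G) := by
  have hp : p.Prime := Fact.out
  have hn : orderOf y ≠ 0 := (orderOf_pos y).ne'
  set a := (orderOf y).factorization p with ha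
  have h1 : p ^ a * (orderOf y / p ^ a) = orderOf y := Nat.ordProj_mul_ordCompl_eq_self _ p
  have h2 : (orderOf y / p ^ a).Coprime p := (Nat.coprime_ordCompl hp hn).symm
  have h3 : (y ^ (p ^ a)) ^ (orderOf y / p ^ a) = 1 := by
    rw [← pow_mul, h1, pow_orderOf_eq_one]
  have hmem : y ^ (p ^ a) ∈ chiefStab W := Subgroup.pow_mem _ hy _
  have h4 := chiefStab_coprime_comm hTp hWT hmem h3 h2 W hWn le_rfl
  refine ⟨a, hmem, Subgroup.mem_centralizer_iff.2 ?_⟩
  intro w hw
  exact (commutatorElement_eq_one_iff_mul_comm).1 (h4 w hw)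

universe u

theorem exists_good {G : Type u} [Group G] [Finite G] {p : ℕ} [Fact p.Prime]
    (S : Sylow p G) {D : Subgroup G} (hDn : D.Normal) (hDT : D ≤ pCore p G)
    (hD : ⁅D, pCore p G⁆ ≤ Zc D) (hCT : pCore p G ⊓ centralizer (D : Set G) ≤ D)
    (hK : ¬ (inducedFunctor kInfLower (S : Subgroup G)).Normal ∨
      ¬ (inducedFunctor kInfUpper (S : Subgroup G)).Normal) :
    ∃ g : G, g ∈ (S : Subgroup G) ∧ g ∉ pCore p G ∧
      iterCommutator D (zpowers g) 3 ≤ Zc D ∧
      ⁅⁅Zc D, zpowers g⁆, zpowers g⁆ = ⊥ ∧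
      (centralizer (pCore p G : Set G) ≤ pCore p G →
        ∃ U V : Subgroup G, IsChiefFactor U V ∧ U ≤ D ∧
          ⁅⁅U, zpowers g⁆, zpowers g⁆ ≤ V ∧ ¬ ⁅U, zpowers g⁆ ≤ V) := by
  by_contra hno
  have hTp : IsPGroup p (pCore p G) := Cfsg.Agent.Lib.Core.Basic.pCore_isPGroup
  have hTn : (pCore p G).Normal := inferInstance
  have hWn : (Zc D).Normal := Zc_normal hDn
  have hgood : ∀ a ∈ (S : Subgroup G), a ∉ pCore p G → iterCommutator D (zpowers a) 3 ≤ Zc D →
      ⁅⁅Zc D, zpowers a⁆, zpowers a⁆ = ⊥ →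
      centralizer (pCore p G : Set G) ≤ pCore p G ∧
        ∀ U V : Subgroup G, IsChiefFactor U V → U ≤ D → ⁅⁅U, zpowers a⁆, zpowers a⁆ ≤ V →
          ⁅U, zpowers a⁆ ≤ V := by
    intro a ha hat h3 hz
    by_contra hcon
    apply hno
    refine ⟨a, ha, hat, h3, hz, fun hC => ?_⟩
    by_contra hex
    apply hcon
    refine ⟨hC, fun U V hUV hUD hq => ?_⟩
    by_contra hU
    exact hex ⟨U, V, hUV, hUD, hq, hU⟩
  have hchief : ∀ a ∈ (S : Subgroup G), a ∉ pCore p G → iterCommutator D (zpowers a) 3 ≤ Zc D →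
      ⁅⁅Zc D, zpowers a⁆, zpowers a⁆ = ⊥ →
      (centralizer (pCore p G : Set G) ≤ pCore p G → ∀ E F : Subgroup G, IsChiefFactor E F →
        E ≤ D → ⁅⁅E, zpowers a⁆, zpowers a⁆ ≤ F) → False := by
    intro a ha hat h3 hz hall
    obtain ⟨hC, hU⟩ := hgood a ha hat h3 hz
    have : a ∈ chiefStab D := by
      intro E F hEF hED e he
      exact hU E F hEF hED (hall hC E F hEF hED)
        (Subgroup.commutator_mem_commutator he (Subgroup.mem_zpowers a))
    exact hat (chiefStab_le_pCore hDn hDT hD hCT hC this)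
  have hQ : QuadCond (S : Subgroup G) (pCore p G) D := by
    intro a ha h1 h2
    by_contra hat
    refine hchief a ha hat ?_ h1 (fun _ E F hEF hED => chief_quad hDn hEF hED h1 h2)
    exact (Subgroup.commutator_mono h2 le_rfl).trans (comm_normal_le hWn _)
  have hlow : ∀ Q B : Subgroup G, D ≤ Q → Q ≤ (S : Subgroup G) → B ∈ kLowerStarFamily Q →
      B ≤ (S : Subgroup G) → B ≤ pCore p G := by
    intro Q B hDQ _ hB hBS
    have hDD : ∀ x ∈ D, ∀ y ∈ D, ⁅x, y⁆ ∈ Zc D := fun x hx y hy =>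
      hD (Subgroup.commutator_mem_commutator hx (hDT hy))
    have hBD : ∀ g ∈ B, ⁅D, zpowers g⁆ ≤ B := by
      intro g hg
      have hz : zpowers g ≤ B := Subgroup.zpowers_le.2 hg
      rw [Subgroup.commutator_comm]
      have h3 : ⁅zpowers g, D⁆ ≤ ⁅B, D⁆ := Subgroup.commutator_mono hz le_rfl
      exact h3.trans (Subgroup.le_normalizer_iff_commutator_le_left.1 (hDQ.trans hB.2.1))
    -- `Z(B) ≤ T`
    have hZB : Zc B ≤ pCore p G := by
      intro z hz
      have hzc : zpowers z ≤ centralizer (B : Set G) := Subgroup.zpowers_le.2 hz.2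
      have h1 : ⁅⁅D, zpowers z⁆, zpowers z⁆ = ⊥ := by
        rw [eq_bot_iff]
        have h2 : ⁅B, zpowers z⁆ = ⊥ := by
          rw [Subgroup.commutator_comm]
          exact Subgroup.commutator_eq_bot_iff_le_centralizer.2 hzc
        rw [← h2]
        exact Subgroup.commutator_mono (hBD z hz.1) le_rfl
      apply hQ z (hBS hz.1)
      · rw [eq_bot_iff, ← h1]
        exact Subgroup.commutator_mono (Subgroup.commutator_mono inf_le_left le_rfl) le_rfl
      · rw [h1]; exact bot_le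
    have hZDT : Zc D ≤ pCore p G := inf_le_left.trans hDT
    have hcub : ∀ g ∈ B, iterCommutator D (zpowers g) 3 ≤ Zc D := fun g hg => by
      rw [lower_cubic hDQ hB hg]; exact bot_le
    -- `B` stabilizes the chief factors inside `Z(D)`
    have hBJ : B ≤ chiefStab (Zc D) := by
      intro g hg E F hEF hEZ e he
      by_contra hne
      have hgT : g ∉ pCore p G := by
        intro hgT
        exact hne (chief_comm_le hTp hTn hEF (hEZ.trans hZDT)
          (Subgroup.commutator_mem_commutator he hgT))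
      obtain ⟨-, hU⟩ := hgood g (hBS hg) hgT (hcub g hg) (lower_quad_Zc hDn hDQ hB hg)
      refine hne (hU E F hEF (hEZ.trans inf_le_left) ?_
        (Subgroup.commutator_mem_commutator he (Subgroup.mem_zpowers g)))
      have h4 := lower_quad_Zc hDn hDQ hB hg
      have h5 : ⁅⁅E, zpowers g⁆, zpowers g⁆ ≤ ⁅⁅Zc D, zpowers g⁆, zpowers g⁆ :=
        Subgroup.commutator_mono (Subgroup.commutator_mono hEZ le_rfl) le_rfl
      rw [h4] at h5
      exact h5.trans bot_le
    -- the radical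
    set W₁ := Zc D ⊓ centralizer (B : Set G) with hW₁
    have hW₁le : W₁ ≤ Zc D := inf_le_left
    set D₁ := radSub D W₁ hW₁le with hD₁
    have hD₁D : D₁ ≤ D := fun x hx => hx.1
    have hBnorm : ∀ b ∈ B, ∀ x ∈ D₁, b * x * b⁻¹ ∈ D₁ := by
      intro b hb x hx
      refine ⟨hDn.conj_mem x hx.1 b, fun y hy => ?_⟩
      have h1 := hx.2 _ (by simpa using hDn.conj_mem y hy b⁻¹ : b⁻¹ * y * b ∈ D)
      have h2 : ⁅b * x * b⁻¹, y⁆ = b * ⁅x, b⁻¹ * y * b⁆ * b⁻¹ := by
        simp only [commutatorElement_def]; group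
      rw [h2]
      have h3 : b * ⁅x, b⁻¹ * y * b⁆ = ⁅x, b⁻¹ * y * b⁆ * b :=
        ((Subgroup.mem_centralizer_iff.1 h1.2) b hb)
      rw [h3]
      simpa using h1
    have hD₁c : ⁅D₁, D₁⁆ ≤ W₁ := by
      rw [Subgroup.commutator_le]
      intro a ha b hb
      exact ha.2 b hb.1
    have hBD₁ : ⁅B, D₁⁆ ≤ Zc B := by
      refine hB.2.2 D₁ ?_ (hD₁D.trans hDQ) ?_ ?_ ?_
      · show ⁅D₁, D₁⁆ ≤ _
        intro x hx
        have hx' := (hW₁le (hD₁c hx))
        rw [Subgroup.mem_centralizer_iff]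
        intro y hy
        exact (mem_Zc.1 hx').2 y hy.1
      · intro b hb
        refine mem_normalizer_of_conj (hBnorm b hb) ?_
        intro m hm
        simpa using hBnorm b⁻¹ (B.inv_mem hb) m hm
      · rw [Subgroup.commutator_comm]
        exact Subgroup.commutator_eq_bot_iff_le_centralizer.2 (hD₁c.trans inf_le_right)
      · rw [eq_bot_iff]
        have h1 : ⁅Zc B, D₁⁆ ≤ Zc D := by
          rw [Subgroup.commutator_comm]
          exact (Subgroup.commutator_mono hD₁D hZB).trans hD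
        have h2 : ⁅Zc D, D₁⁆ = ⊥ := Subgroup.commutator_eq_bot_iff_le_centralizer.2
          (inf_le_right.trans (Subgroup.centralizer_le hD₁D))
        rw [← h2]
        exact Subgroup.commutator_mono h1 le_rfl
    -- now fix `g`
    intro g hg
    by_contra hgT
    refine hchief g (hBS hg) hgT (hcub g hg) (lower_quad_Zc hDn hDQ hB hg) ?_
    intro _ E F hEF hED
    have hz : zpowers g ≤ B := Subgroup.zpowers_le.2 hg
    have hq₁ : ⁅⁅D₁, zpowers g⁆, zpowers g⁆ = ⊥ := by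
      apply Subgroup.commutator_eq_bot_iff_le_centralizer.2
      have h1 : ⁅D₁, zpowers g⁆ ≤ ⁅B, D₁⁆ := by
        rw [Subgroup.commutator_comm]
        exact Subgroup.commutator_mono hz le_rfl
      exact (h1.trans (hBD₁.trans inf_le_right)).trans (Subgroup.centralizer_le hz)
    have hq₂ : ⁅⁅D, zpowers g⁆, zpowers g⁆ ≤ D₁ := by
      rw [Subgroup.commutator_le]
      intro c hc k hk
      have hcD : c ∈ D := comm_normal_le hDn _ hc
      have hcB : c ∈ B := hBD g hg hc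
      refine ⟨?_, fun y hy => comm_inf_le_radSub hDn hDD hDQ hB hcD hcB (hz hk) hy hW₁⟩
      have := D.mul_mem hcD (hDn.conj_mem _ (D.inv_mem hcD) k)
      simpa [commutatorElement_def, mul_assoc] using this
    set J := chiefStab (Zc D) with hJ
    have hJn : J.Normal := chiefStab_normal _
    have hcn : (centralizer (Zc D : Set G)).Normal := centralizer_normal hWn
    have := hJn; have := hcn
    have hIn : (J ⊓ centralizer (Zc D : Set G)).Normal := Subgroup.normal_inf_normal _ _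
    set I := J ⊓ centralizer (Zc D : Set G) with hI
    have hInorm : ∀ i ∈ I, ∀ x ∈ D₁, i * x * i⁻¹ ∈ D₁ := by
      intro i hi x hx
      refine ⟨hDn.conj_mem x hx.1 i, fun y hy => ?_⟩
      have h1 := hx.2 _ (by simpa using hDn.conj_mem y hy i⁻¹ : i⁻¹ * y * i ∈ D)
      have h2 : ⁅i * x * i⁻¹, y⁆ = i * ⁅x, i⁻¹ * y * i⁆ * i⁻¹ := by
        simp only [commutatorElement_def]; group
      rw [h2]
      have h3 : ⁅x, i⁻¹ * y * i⁆ * i = i * ⁅x, i⁻¹ * y * i⁆ :=
        (Subgroup.mem_centralizer_iff.1 hi.2) _ (hW₁le h1)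
      rw [← h3]
      simpa using h1
    have hFn := hEF.2.2.1
    have hEn := hEF.2.1
    have := hFn
    let φ : G →* G ⧸ F := QuotientGroup.mk' F
    have hs : Function.Surjective φ := QuotientGroup.mk'_surjective _
    have hV : MinAb p (E.map φ) := minAb_of_chief hTp hTn hEF (hED.trans hDT)
    have key := quad_of_radical hV (I := I.map φ) (J := J.map φ) (hIn.map φ hs) (hJn.map φ hs)
      (Subgroup.map_mono inf_le_left)
      (by
        rintro _ ⟨j, hj, rfl⟩
        obtain ⟨k, hk⟩ := chiefStab_pquot hTp hZDT hWn hj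
        exact ⟨k, j ^ (p ^ k), hk, by simp⟩)
      (u := φ g) ⟨g, hBJ hg, rfl⟩
      (P := (D₁ ⊓ E).map φ) (Subgroup.map_mono inf_le_right)
      (by
        rintro _ ⟨i, hi, rfl⟩ _ ⟨m, hm, rfl⟩
        exact ⟨i * m * i⁻¹, ⟨hInorm i hi m hm.1, hEn.conj_mem m hm.2 i⟩, by simp⟩)
      (by
        rintro _ ⟨m, hm, rfl⟩
        exact ⟨g * m * g⁻¹, ⟨hBnorm g hg m hm.1, hEn.conj_mem m hm.2 g⟩, by simp⟩)
      (by
        rintro _ ⟨m, hm, rfl⟩
        have h1 : g⁻¹ * m * g ∈ D₁ := by simpa using hBnorm g⁻¹ (B.inv_mem hg) m hm.1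
        have h2 : g⁻¹ * m * g ∈ E := by simpa using hEn.conj_mem m hm.2 g⁻¹
        exact ⟨g⁻¹ * m * g, ⟨h1, h2⟩, by simp⟩)
      (by
        rw [← MonoidHom.map_zpowers, ← Subgroup.map_commutator, ← Subgroup.map_commutator]
        apply Subgroup.map_mono
        intro x hx
        refine ⟨hq₂ (Subgroup.commutator_mono (Subgroup.commutator_mono hED le_rfl) le_rfl hx), ?_⟩
        have hEc : ⁅E, zpowers g⁆ ≤ E := comm_normal_le hEn _
        exact hEc (Subgroup.commutator_mono hEc le_rfl hx))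
      (by
        rw [← MonoidHom.map_zpowers, ← Subgroup.map_commutator, ← Subgroup.map_commutator,
          Subgroup.map_eq_bot_iff]
        have h1 : ⁅⁅D₁ ⊓ E, zpowers g⁆, zpowers g⁆ ≤ ⁅⁅D₁, zpowers g⁆, zpowers g⁆ :=
          Subgroup.commutator_mono (Subgroup.commutator_mono inf_le_left le_rfl) le_rfl
        rw [hq₁] at h1
        exact h1.trans bot_le)
    rw [← MonoidHom.map_zpowers, ← Subgroup.map_commutator, ← Subgroup.map_commutator,
      Subgroup.map_eq_bot_iff, QuotientGroup.ker_mk'] at key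
    exact key
  have hfinal := Cfsg.Agent.Lib.KInf.Chain.kInf_normal_of_bounds (S : Subgroup G) hTn
    (Cfsg.Agent.Lib.KInf.Main.pCore_le_sylow S) hDT hD
    (fun Q hQS => critical_mem_lower hDn hDT hD hQ hQS) hlow
    (fun Q B hDQ _ hB hBS => upper_le_of_quad hQ hDQ hB hBS)
  rcases hK with h | h
  · exact h hfinal.1
  · exact h hfinal.2

end Good

end Cfsg.Agent.Lib.KInf.QuadChief
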