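import Cfsg.Agent.Lib.KInf.WeakMain

/-!
# Weak closure and the lower K-infinity subgroup
-/

set_option autoImplicit false

namespace Cfsg.Agent.Lib.KInf.WeakKInf

open Cfsg Cfsg.Agent.Lib.ConjFam.Basic Cfsg.Agent.Lib.ConjFam.WellPlaced
  Cfsg.Agent.Lib.KInf.WeakStep Cfsg.Agent.Lib.KInf.WeakBase Cfsg.Agent.Lib.KInf.WeakMain
  Cfsg.Agent.Lib.KInf.Comm Cfsg.Agent.Lib.Core.Basic Cfsg.Agent.Lib.TransferCtl.Basic
open scoped commutatorElement

universe u

variable {G : Type u} [Group G] [Finite G] {p : ℕ} [Fact p.Prime]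

lemma map_induced_subgroupOf {H T : Subgroup G} (hTH : T ≤ H) :
    (inducedFunctor kInfLower (T.subgroupOf H)).map H.subtype = inducedFunctor kInfLower T := by
  show ((kInfLower ↥(T.subgroupOf H)).map (T.subgroupOf H).subtype).map H.subtype =
    (kInfLower ↥T).map T.subtype
  rw [← Cfsg.Agent.Lib.KInf.Chain.map_kInfLower_equiv (Subgroup.subgroupOfEquivOfLe hTH),
    Subgroup.map_map, Subgroup.map_map]
  rfl

/-- The K-infinity theorem in a subgroup. -/
theorem kInf_local {H T : Subgroup G} (hTH : T ≤ H) (hTp : IsPGroup p T) (hTi : ¬ p ∣ T.relIndex H)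
    (hn : ¬ H ≤ Subgroup.normalizer ((inducedFunctor kInfLower T : Subgroup G) : Set G)) :
    ∃ g₀ : H, (g₀ : G) ∈ T ∧ g₀ ∉ pCore p H ∧
      ⁅⁅pCore p H ⊓ Subgroup.centralizer ((pCore p H : Subgroup H) : Set H), Subgroup.zpowers g₀⁆,
        Subgroup.zpowers g₀⁆ = ⊥ := by
  have hSp : IsPGroup p (T.subgroupOf H) := hTp.comap_subtype
  let S : Sylow p H := hSp.toSylow hTi
  by_contra hno
  have hbad : ¬ ∃ g : H, g ∈ (S : Subgroup H) ∧ g ∉ pCore p H ∧
      (∀ U V : Subgroup H, IsChiefFactor U V → U ≤ pCore p H →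
        iterCommutator U (Subgroup.zpowers g) 4 ≤ V) ∧
      ⁅⁅pCore p H ⊓ Subgroup.centralizer ((pCore p H : Subgroup H) : Set H), Subgroup.zpowers g⁆,
        Subgroup.zpowers g⁆ = ⊥ := by
    rintro ⟨g, hg1, hg2, -, hg4⟩
    exact hno ⟨g, Subgroup.mem_subgroupOf.1 hg1, hg2, hg4⟩
  obtain ⟨h1, -⟩ := Cfsg.Agent.Lib.KInf.Main.kInf_normal_of_no_bad S hbad
  apply hn
  intro y hy
  have h2 : (⟨y, hy⟩ : H) ∈ Subgroup.normalizer
      ((inducedFunctor kInfLower (T.subgroupOf H) : Subgroup H) : Set H) := by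
    have h3 : (inducedFunctor kInfLower (T.subgroupOf H) : Subgroup H).Normal := h1
    rw [Subgroup.normalizer_eq_top_iff.2 h3]
    exact Subgroup.mem_top _
  rw [mem_normalizer_map, map_induced_subgroupOf hTH] at h2
  exact h2

theorem isConj_kInfLower : IsConjugacyFunctor p (inducedFunctor (G := G) kInfLower) :=
  inducedFunctor_isConjugacyFunctor Cfsg.Agent.Lib.KInf.Transfer.isCharP_kInfLower

lemma center_le_induced (P : Subgroup G) :
    P ⊓ Subgroup.centralizer ((P : Subgroup G) : Set G) ≤ inducedFunctor kInfLower P := by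
  rintro z ⟨hz1, hz2⟩
  refine ⟨⟨z, hz1⟩, Cfsg.Agent.Lib.KInf.Transfer.center_le_kInfLower _ ?_, rfl⟩
  rw [Subgroup.mem_center_iff]
  intro y
  exact Subtype.ext ((Subgroup.mem_centralizer_iff.1 hz2) (y : G) y.2)

/-- Weak closure of elements for odd `p`. -/
theorem controls_weak_closure_kInfLower (hp : p ≠ 2) (H : Subgroup G) :
    ControlsWeakClosureOfElementsIn p (inducedFunctor (G := G) kInfLower) H := by
  refine controls_weak_closure_engel isConj_kInfLower (fun P _ => center_le_induced P) ?_ H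
  intro H T hTH hTp hTi hn
  obtain ⟨g₀, hg1, hg2, hg3⟩ := kInf_local hTH hTp hTi hn
  refine ⟨g₀, hg1, ?_, ?_⟩
  · intro h
    exact hg2 ((coe_mem_map H _ g₀).1 h)
  · intro U V hUV hU
    rw [iter_subtype_le_iff]
    have hU' : U ≤ pCore p H ⊓ Subgroup.centralizer ((pCore p H : Subgroup H) : Set H) :=
      (Subgroup.map_le_map_iff_of_injective H.subtype_injective).1 (hU.trans (core_le_map H))
    have hUn : U.Normal := hUV.2.1
    have hp2 : 2 ≤ p - 1 := by
      have h2 := (Fact.out : p.Prime).two_le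
      have h3 := (Fact.out : p.Prime).eq_one_or_self_of_dvd 2
      by_contra hlt
      have : p = 2 := by omega
      exact hp this
    have h1 := iter_antitone (comm_normal_le hUn (Subgroup.zpowers g₀)) hp2
    refine h1.trans (le_trans ?_ bot_le)
    have h2 := iter_mono (Subgroup.zpowers g₀) hU' 2
    refine h2.trans ?_
    exact hg3.le

/-- The `p`-th powers of central elements. -/
theorem weakly_closed_powers_kInfLower (S : Sylow p G) (Z : Subgroup G)
    (hZ : Z = Subgroup.closure ((fun z : G => z ^ p) ''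
      (((S : Subgroup G) ⊓ Subgroup.centralizer (((S : Subgroup G) : Subgroup G) : Set G) : Subgroup G) : Set G))) :
    (∀ x ∈ Z ⊓ Subgroup.centralizer ((Subgroup.normalizer ((inducedFunctor kInfLower (S : Subgroup G) : Subgroup G) : Set G) : Subgroup G) : Set G),
      ∀ g : G, g * x * g⁻¹ ∈ (S : Subgroup G) → g * x * g⁻¹ = x) ∧
    ∀ A : Subgroup G, A ≤ Z → Subgroup.normalizer ((inducedFunctor kInfLower (S : Subgroup G) : Subgroup G) : Set G) ≤
      Subgroup.normalizer ((A : Subgroup G) : Set G) → IsWeaklyClosed A (S : Subgroup G) := by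
  refine weakly_closed_powers S isConj_kInfLower (fun P _ => center_le_induced P) ?_ Z hZ
  intro H T hTH hTp hTi hn
  obtain ⟨g₀, hg1, hg2, hg3⟩ := kInf_local hTH hTp hTi hn
  refine ⟨g₀, hg1, ?_, ?_⟩
  · intro h
    exact hg2 ((coe_mem_map H _ g₀).1 h)
  · rw [eq_bot_iff]
    have h1 := Subgroup.map_mono (f := H.subtype) hg3.le
    rw [Subgroup.map_commutator, Subgroup.map_commutator, map_zpowers_subtype, Subgroup.map_bot] at h1
    exact (Subgroup.commutator_mono (Subgroup.commutator_mono (core_le_map H) le_rfl) le_rfl).trans h1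

end Cfsg.Agent.Lib.KInf.WeakKInf
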